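/-
Norm surjectivity and Hilbert 90 in a commutative subring of a finite ring stable under an anti-automorphism.
-/
import Mathlib
import Cfsg.Agent.Lib.MatConj.NormSurj

set_option autoImplicit false
set_option linter.unusedSimpArgs false
set_option linter.unusedSectionVars false
set_option linter.style.haveILetI false
set_option linter.unusedVariables false

namespace Cfsg.Agent.Lib.Wall.Polar

open Cfsg.Agent.Lib.MatConj.NormSurj

section comm

variable {Y : Type*} [CommRing Y] [Finite Y]

/-- Hilbert 90 from surjectivity of the norm, by counting. -/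
theorem h90_of_norm (σ : Y →+* Y) (hσ : ∀ y, σ (σ y) = y)
    (hnorm : ∀ x : Y, IsUnit x → σ x = x → ∃ y, σ y * y = x)
    (T : Y) (hT : σ T * T = 1) : ∃ x : Y, IsUnit x ∧ x = σ x * T := by
  classical
  let σu : Yˣ →* Yˣ := Units.map (σ : Y →* Y)
  have hσu : ∀ x : Yˣ, ((σu x : Yˣ) : Y) = σ x := fun _ => rfl
  have hσσ : ∀ x : Yˣ, σu (σu x) = x := fun x => Units.ext (hσ x)
  let ψ : Yˣ →* Yˣ := (MonoidHom.id _) * σu
  let φ : Yˣ →* Yˣ := (MonoidHom.id _) * σu⁻¹
  have hψ : ∀ x, ψ x = x * σu x := fun _ => rfl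
  have hφ : ∀ x, φ x = x * (σu x)⁻¹ := fun _ => rfl
  -- the fixed units
  have hkerφ : ∀ x, x ∈ φ.ker ↔ σu x = x := by
    intro x
    rw [MonoidHom.mem_ker, hφ, mul_inv_eq_one]
    exact eq_comm
  have hrangeψ : ψ.range = φ.ker := by
    ext x
    rw [hkerφ]
    constructor
    · rintro ⟨y, rfl⟩
      rw [hψ, map_mul, hσσ, mul_comm]
    · intro hx
      have hxfix : σ (x : Y) = x := by
        rw [← hσu, hx]
      obtain ⟨y, hy⟩ := hnorm x x.isUnit hxfix
      have hyu : IsUnit y := by
        have h1 : IsUnit (σ y * y) := by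
          rw [hy]
          exact x.isUnit
        exact isUnit_of_mul_isUnit_right h1
      obtain ⟨yu, rfl⟩ := hyu
      refine ⟨yu, Units.ext ?_⟩
      rw [hψ, Units.val_mul, hσu, mul_comm]
      exact hy
  have hle : φ.range ≤ ψ.ker := by
    rintro _ ⟨y, rfl⟩
    rw [MonoidHom.mem_ker, hφ, hψ, map_mul, map_inv, hσσ, mul_comm]
    simp
  have hc1 := Subgroup.card_mul_index φ.ker
  have hc2 := Subgroup.card_mul_index ψ.ker
  rw [Subgroup.index_ker] at hc1 hc2
  rw [hrangeψ] at hc2
  have hpos : 0 < Nat.card φ.ker := Nat.card_pos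
  have hcard : Nat.card φ.range = Nat.card ψ.ker := by
    have h3 : Nat.card φ.ker * Nat.card φ.range = Nat.card φ.ker * Nat.card ψ.ker := by
      rw [hc1, mul_comm, hc2]
    exact Nat.eq_of_mul_eq_mul_left hpos h3
  have heq : φ.range = ψ.ker := by
    apply Subgroup.eq_of_le_of_card_ge hle
    exact hcard.ge
  have hTu : IsUnit T := IsUnit.of_mul_eq_one _ (by rw [mul_comm]; exact hT)
  obtain ⟨Tu, rfl⟩ := hTu
  have hTker : Tu ∈ ψ.ker := by
    rw [MonoidHom.mem_ker, hψ]
    apply Units.ext
    rw [Units.val_mul, hσu, Units.val_one, mul_comm]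
    exact hT
  rw [← heq] at hTker
  obtain ⟨x, hx⟩ := hTker
  refine ⟨x, x.isUnit, ?_⟩
  have h1 : x = Tu * σu x := by
    rw [← hx, hφ]
    simp
  have h2 := congrArg Units.val h1
  rw [Units.val_mul, hσu, mul_comm] at h2
  exact h2

end comm

section ring

variable {M : Type*} [Ring M] [Finite M]

/-- An anti-endomorphism of a ring. -/
structure Anti (θ : M → M) : Prop where
  add : ∀ x y, θ (x + y) = θ x + θ y
  mul : ∀ x y, θ (x * y) = θ y * θ x
  one : θ 1 = 1

variable {θ : M → M}

theorem Anti.zero (h : Anti θ) : θ 0 = 0 := by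
  have := h.add 0 0
  simpa using this

theorem Anti.neg (h : Anti θ) (x : M) : θ (-x) = - θ x := by
  have h1 := h.add x (-x)
  rw [add_neg_cancel, h.zero] at h1
  exact eq_neg_of_add_eq_zero_right h1.symm

theorem Anti.sub (h : Anti θ) (x y : M) : θ (x - y) = θ x - θ y := by
  rw [sub_eq_add_neg, h.add, h.neg, sub_eq_add_neg]

/-- `θ` preserves the closure of a set when it does on generators. -/
theorem Anti.mem_closure (h : Anti θ) {S : Set M} (hst : ∀ a ∈ S, θ a ∈ Subring.closure S)
    {x : M} (hx : x ∈ Subring.closure S) : θ x ∈ Subring.closure S := by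
  induction hx using Subring.closure_induction with
  | mem x hx => exact hst x hx
  | zero => rw [h.zero]; exact zero_mem _
  | one => rw [h.one]; exact one_mem _
  | add x y _ _ hx hy => rw [h.add]; exact add_mem hx hy
  | neg x _ hx => rw [h.neg]; exact neg_mem hx
  | mul x y _ _ hx hy => rw [h.mul]; exact mul_mem hy hx

theorem Anti.invol (h : Anti θ) {S : Set M} (hinv : ∀ a ∈ S, θ (θ a) = a)
    {x : M} (hx : x ∈ Subring.closure S) : θ (θ x) = x := by
  induction hx using Subring.closure_induction with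
  | mem x hx => exact hinv x hx
  | zero => rw [h.zero, h.zero]
  | one => rw [h.one, h.one]
  | add x y _ _ hx hy => rw [h.add, h.add, hx, hy]
  | neg x _ hx => rw [h.neg, h.neg, hx]
  | mul x y _ _ hx hy => rw [h.mul, h.mul, hx, hy]

/-- A unit of a finite ring has its inverse in any subring containing it. -/
theorem inv_mem_subring (A : Subring M) {x : M} (hx : x ∈ A) (hu : IsUnit x) :
    ∃ y ∈ A, y * x = 1 ∧ x * y = 1 := by
  obtain ⟨u, rfl⟩ := hu
  have hfin : IsOfFinOrder u := isOfFinOrder_of_finite u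
  obtain ⟨k, hk, hku⟩ := hfin.exists_pow_eq_one
  refine ⟨(u : M) ^ (k - 1), pow_mem hx _, ?_, ?_⟩
  · rw [← pow_succ]
    have : k - 1 + 1 = k := by omega
    rw [this, ← Units.val_pow_eq_pow_val, hku, Units.val_one]
  · rw [← pow_succ']
    have : k - 1 + 1 = k := by omega
    rw [this, ← Units.val_pow_eq_pow_val, hku, Units.val_one]

variable (h : Anti θ) {S : Set M} (hcomm : ∀ a ∈ S, ∀ b ∈ S, a * b = b * a)
  (hst : ∀ a ∈ S, θ a ∈ Subring.closure S) (hinv : ∀ a ∈ S, θ (θ a) = a)

/-- The commutative ring generated by `S`. -/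
@[reducible] def closureRing (hcomm : ∀ a ∈ S, ∀ b ∈ S, a * b = b * a) : CommRing (Subring.closure S) :=
  Subring.closureCommRingOfComm hcomm

include hcomm hst hinv h in
/-- The involution on the closure as a ring homomorphism. -/
theorem exists_sigma :
    letI := closureRing hcomm
    ∃ σ : Subring.closure S →+* Subring.closure S, (∀ y, ((σ y : Subring.closure S) : M) = θ y) ∧
      ∀ y, σ (σ y) = y := by
  letI := closureRing hcomm
  refine ⟨{ toFun := fun y => ⟨θ y, h.mem_closure hst y.2⟩
            map_one' := Subtype.ext h.one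
            map_zero' := Subtype.ext h.zero
            map_add' := fun x y => Subtype.ext (h.add _ _)
            map_mul' := fun x y => by
              apply Subtype.ext
              show θ ((x : M) * y) = θ x * θ y
              rw [h.mul]
              exact congrArg Subtype.val (mul_comm (⟨θ y, h.mem_closure hst y.2⟩ : Subring.closure S)
                ⟨θ x, h.mem_closure hst x.2⟩) }, fun y => rfl, fun y => Subtype.ext ?_⟩
  exact h.invol hinv y.2

include hcomm hst hinv h in
/-- Surjectivity of the norm in the commutative ring generated by `S`. -/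
theorem exists_norm {c w : M} (hc : c ∈ Subring.closure S) (hctr : c + θ c = 1)
    (hw : w ∈ Subring.closure S) (hwu : IsUnit (w - θ w))
    {x : M} (hx : x ∈ Subring.closure S) (hfix : θ x = x) (hxu : IsUnit x) :
    ∃ y ∈ Subring.closure S, θ y * y = x := by
  letI := closureRing hcomm
  obtain ⟨σ, hσ, hσσ⟩ := exists_sigma h hcomm hst hinv
  haveI : Finite (Subring.closure S) := inferInstance
  have hunit : ∀ z : M, ∀ hz : z ∈ Subring.closure S, IsUnit z →
      IsUnit (⟨z, hz⟩ : Subring.closure S) := by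
    intro z hz hzu
    obtain ⟨y, hy, h1, h2⟩ := inv_mem_subring _ hz hzu
    exact IsUnit.of_mul_eq_one (⟨y, hy⟩ : Subring.closure S) (Subtype.ext h2)
  have hw' : IsUnit (σ ⟨w, hw⟩ - ⟨w, hw⟩ : Subring.closure S) := by
    have h1 := hunit (θ w - w) (sub_mem (h.mem_closure hst hw) hw) (by
      have := hwu.neg
      simpa using this)
    convert h1 using 1
    apply Subtype.ext
    show ((σ ⟨w, hw⟩ : Subring.closure S) : M) - w = _
    rw [hσ]
  have hfield : ∀ m : Ideal (Subring.closure S), m.IsMaximal → m.comap σ = m →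
      ∃ y, σ y - y ∉ m := by
    intro m hm _
    refine ⟨⟨w, hw⟩, fun hmem => hm.ne_top (Ideal.eq_top_of_isUnit_mem _ hmem hw')⟩
  obtain ⟨y, hy⟩ := exists_norm_eq σ hσσ ⟨c, hc⟩ (Subtype.ext (by
      show c + ((σ ⟨c, hc⟩ : Subring.closure S) : M) = 1
      rw [hσ]
      exact hctr)) hfield ⟨x, hx⟩ (hunit x hx hxu) (Subtype.ext (by rw [hσ]; exact hfix))
  refine ⟨y, y.2, ?_⟩
  have := congrArg Subtype.val hy
  rw [← hσ]
  exact this

include hcomm hst hinv h in
/-- Hilbert 90 in the commutative ring generated by `S`. -/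
theorem exists_h90 {c w : M} (hc : c ∈ Subring.closure S) (hctr : c + θ c = 1)
    (hw : w ∈ Subring.closure S) (hwu : IsUnit (w - θ w))
    {T : M} (hT : T ∈ Subring.closure S) (hTnorm : θ T * T = 1) :
    ∃ x ∈ Subring.closure S, IsUnit x ∧ x = θ x * T := by
  letI := closureRing hcomm
  obtain ⟨σ, hσ, hσσ⟩ := exists_sigma h hcomm hst hinv
  haveI : Finite (Subring.closure S) := inferInstance
  have hnorm : ∀ x : Subring.closure S, IsUnit x → σ x = x → ∃ y, σ y * y = x := by
    intro x hxu hxf
    obtain ⟨y, hy, hyx⟩ := exists_norm h hcomm hst hinv hc hctr hw hwu x.2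
      (by rw [← hσ, hxf]) (hxu.map (Subring.closure S).subtype)
    refine ⟨⟨y, hy⟩, Subtype.ext ?_⟩
    show ((σ ⟨y, hy⟩ : Subring.closure S) : M) * y = x
    rw [hσ]
    exact hyx
  obtain ⟨x, hxu, hx⟩ := h90_of_norm σ hσσ hnorm ⟨T, hT⟩ (Subtype.ext (by
    show ((σ ⟨T, hT⟩ : Subring.closure S) : M) * T = 1
    rw [hσ]
    exact hTnorm))
  refine ⟨x, x.2, hxu.map (Subring.closure S).subtype, ?_⟩
  have := congrArg Subtype.val hx
  rw [← hσ]
  exact this

end ring

end Cfsg.Agent.Lib.Wall.Polar
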