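import Cfsg.Agent.Lib.Wall.PolarForm
import Cfsg.Agent.Lib.Witt.Quadratic

/-!
Semisimple isometries of odd order of a quadratic form: conjugacy under the orthogonal group
follows from conjugacy under the general linear group.
-/

set_option autoImplicit false
open Module Cfsg.Agent.Lib.Wall.PolarForm Cfsg.Agent.Lib.Witt.Quadratic

namespace Cfsg.Agent.Lib.Wall.PolarQuad

variable {F V : Type*} [Field F] [Finite F] [AddCommGroup V] [Module F V] [FiniteDimensional F V]
  {Q : QuadraticForm F V}

theorem exists_conj_quad (hQ : (QuadraticMap.polarBilin Q).Nondegenerate) {a a' b b' G G' : Module.End F V} {n : ℕ}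
    (hn : (n : F) ≠ 0) (hodd : Odd n) (ha1 : a * a' = 1) (ha2 : a' * a = 1) (hb1 : b * b' = 1) (hb2 : b' * b = 1)
    (hG1 : G * G' = 1) (hG2 : G' * G = 1) (hQa : ∀ x, Q (a x) = Q x) (hQb : ∀ x, Q (b x) = Q x)
    (hGa : G * a = b * G) (han : a ^ n = 1) (hbn : b ^ n = 1) :
    ∃ g : V ≃ₗ[F] V, (∀ v, Q (g v) = Q v) ∧ ∀ v, g (a v) = b (g v) := by
  classical
  let C := QuadraticMap.polarBilin Q
  have hCapp : ∀ x y, C x y = QuadraticMap.polar Q x y := fun x y => rfl
  have hCa : ∀ x y, C (a x) (a y) = C x y := fun x y => polar_eq_of_preserves a hQa x y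
  have hCb : ∀ x y, C (b x) (b y) = C x y := fun x y => polar_eq_of_preserves b hQb x y
  have hCε : ∀ x y, C x y = (1 : F) * C y x := fun x y => by
    rw [one_mul, hCapp, hCapp, QuadraticMap.polar_comm]
  let E := avg a n
  let E' := avg b n
  have hE : E * E = E := avg_idem han hn
  have hE' : E' * E' = E' := avg_idem hbn hn
  have hEs : SA C E := avg_SA han hCa
  have hEs' : SA C E' := avg_SA hbn hCb
  have hEa : E * a = E := avg_mul_self han
  have hEb : E' * b = E' := avg_mul_self hbn
  have haE : a * E = E := self_mul_avg han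
  have hbE : b * E' = E' := self_mul_avg hbn
  have hGE : G * E = E' * G := avg_semiconj hGa
  have hT' : (1 - E) * (1 - E) = 1 - E := by
    rw [mul_sub, sub_mul, sub_mul, hE]
    simp
  have hS' : (1 - E') * (1 - E') = 1 - E' := by
    rw [mul_sub, sub_mul, sub_mul, hE']
    simp
  have hTs' : SA C (1 - E) := by
    intro x y
    simp only [LinearMap.sub_apply, Module.End.one_apply, map_sub, hEs x y]
  have hSs' : SA C (1 - E') := by
    intro x y
    simp only [LinearMap.sub_apply, Module.End.one_apply, map_sub, hEs' x y]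
  -- `E x = 0` and `a x = x` forces `x = 0`
  have hfix : ∀ x, E x = 0 → a x = x → x = 0 := by
    intro x h1 h3
    have := avg_fix (n := n) hn h3
    rw [← this]
    exact h1
  have hsq : ∀ x, a (a x) = x → a x = x := by
    intro x hx
    obtain ⟨k, hk⟩ : ∃ k, n + 1 = k + k := by
      obtain ⟨t, rfl⟩ := hodd
      exact ⟨t + 1, by ring⟩
    have h1 : a = (a * a) ^ k := by
      rw [(Commute.refl a).mul_pow, ← pow_add, ← hk, pow_succ, han, one_mul]
    have h3 : ∀ j, ((a * a) ^ j) x = x := by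
      intro j
      induction j with
      | zero => simp
      | succ j ih =>
        rw [pow_succ, Module.End.mul_apply, Module.End.mul_apply, hx, ih]
    have h4 := h3 k
    rw [← h1] at h4
    exact h4
  have hTx : ∀ x, (1 - E) x = x ↔ E x = 0 := by
    intro x
    simp only [LinearMap.sub_apply, Module.End.one_apply]
    constructor
    · intro h
      have : x - E x - x = 0 := by rw [h, sub_self]
      simpa using this
    · intro h
      rw [h, sub_zero]
  obtain ⟨ℓ, hℓ⟩ := piece_polar (C := C) (a := a) (b := b) (a' := a') (b' := b') (G := G) (G' := G') (T := 1 - E) (S := 1 - E') hQ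
    (ε := 1) (by ring) hCε ha1 ha2 hb1 hb2 hG1 hG2 hCa hCb hGa hT' hTs'
    (by rw [sub_mul, mul_sub, hEa, haE, one_mul, mul_one]) hS' hSs'
    (by rw [sub_mul, mul_sub, hEb, hbE, one_mul, mul_one])
    (by rw [mul_sub, sub_mul, hGE, one_mul, mul_one])
    (by
      intro x hx hx2
      exact hfix x ((hTx x).mp hx) (hsq x hx2))
  -- the subspaces
  let X := LinearMap.range (1 - E)
  let Y := LinearMap.range (1 - E')
  have hXmem : ∀ x ∈ X, (1 - E) x = x := by
    rintro _ ⟨z, rfl⟩
    exact LinearMap.congr_fun hT' z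
  have hXE : ∀ x ∈ X, E x = 0 := fun x hx => (hTx x).mp (hXmem x hx)
  have hℓx : ∀ x ∈ X, ∀ y ∈ X, C (ℓ x) (ℓ y) = C x y := by
    intro x hx y hy
    rw [hℓ.iso, hXmem x hx, hXmem y hy]
  have hℓa : ∀ x, ℓ (a x) = b (ℓ x) := fun x => LinearMap.congr_fun hℓ.comm x
  have hℓY : ∀ x, ℓ x ∈ Y := fun x => ⟨ℓ x, LinearMap.congr_fun hℓ.right x⟩
  -- the form is preserved on `X`
  have hXa : ∀ x ∈ X, a x ∈ X := by
    rintro _ ⟨z, rfl⟩
    refine ⟨a z, ?_⟩
    have h1 : (1 - E) * a = a * (1 - E) := by rw [sub_mul, mul_sub, hEa, haE, one_mul, mul_one]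
    exact LinearMap.congr_fun h1 z
  let aX : X →ₗ[F] X := (a - 1).restrict (fun x hx => by
    show a x - x ∈ X
    exact sub_mem (hXa x hx) hx)
  have haX : Function.Injective aX := by
    rw [injective_iff_map_eq_zero]
    intro x hx
    have h1 : a (x : V) - x = 0 := congrArg Subtype.val hx
    have h3 := hfix x (hXE x x.2) (sub_eq_zero.mp h1)
    exact Subtype.ext h3
  have haXs : Function.Surjective aX := LinearMap.injective_iff_surjective.mp haX
  have hQℓ : ∀ x ∈ X, Q (ℓ x) = Q x := by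
    intro z hz
    obtain ⟨w, hw⟩ := haXs ⟨z, hz⟩
    have hw' : a (w : V) - w = z := congrArg Subtype.val hw
    have hwmem : (w : V) ∈ X := w.2
    have hza : a (w : V) = w + z := by rw [← hw']; abel
    have h1 : Q (ℓ (a w)) = Q (ℓ w) := by rw [hℓa, hQb]
    have h3 : Q (a (w : V)) = Q (w : V) := hQa _
    rw [hza, map_add ℓ] at h1
    rw [hza] at h3
    have h4 := map_add_eq (Q := Q) (ℓ w) (ℓ z)
    have h5 := map_add_eq (Q := Q) (w : V) z
    have h6 : QuadraticMap.polar Q (ℓ w) (ℓ z) = QuadraticMap.polar Q (w : V) z := hℓx _ hwmem _ hz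
    rw [h4] at h1
    rw [h5] at h3
    rw [h6] at h1
    linear_combination h1 - h3
  -- `ℓ` as an equivalence
  let ℓX : X →ₗ[F] Y := (ℓ.domRestrict X).codRestrict Y (fun x => hℓY x)
  have hℓXinj : Function.Injective ℓX := by
    rw [injective_iff_map_eq_zero]
    intro x hx
    have h1 : ℓ (x : V) = 0 := congrArg Subtype.val hx
    apply Subtype.ext
    apply hQ.1
    intro z
    have h3 := hℓ.iso x z
    rw [h1, map_zero, LinearMap.zero_apply, hXmem x x.2] at h3
    have h4 : C (x : V) z = C x ((1 - E) z) := by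
      rw [← hXmem x x.2, ← hTs', hXmem x x.2, hXmem x x.2]
    rw [h4]
    exact h3.symm
  have hfr : finrank F X = finrank F Y := by
    let e : V ≃ₗ[F] V := LinearEquiv.ofLinearMap G G' hG1 hG2
    have hmap : Y = X.map (e : V →ₗ[F] V) := by
      have hGT : ∀ x, G ((1 - E) x) = (1 - E') (G x) := fun x => by
        have h1 : G * (1 - E) = (1 - E') * G := by rw [mul_sub, sub_mul, hGE, one_mul, mul_one]
        exact LinearMap.congr_fun h1 x
      ext y
      constructor
      · rintro ⟨z, rfl⟩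
        refine ⟨(1 - E) (G' z), ⟨_, rfl⟩, ?_⟩
        show G ((1 - E) (G' z)) = (1 - E') z
        rw [hGT]
        congr 1
        exact LinearMap.congr_fun hG1 z
      · rintro ⟨_, ⟨z, rfl⟩, rfl⟩
        exact ⟨G z, (hGT z).symm⟩
    rw [hmap]
    exact (LinearEquiv.finrank_map_eq e _).symm
  let φ : X ≃ₗ[F] Y := LinearEquiv.ofInjectiveOfFinrankEq ℓX hℓXinj hfr
  have hφ : ∀ x : X, ((φ x : Y) : V) = ℓ x := fun x => rfl
  obtain ⟨g, hg1, hg2⟩ := witt_extension hQ X Y φ (fun x => by
    rw [hφ]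
    exact hQℓ x x.2)
  refine ⟨g, hg1, ?_⟩
  have hgpol : ∀ x y, C (g x) (g y) = C x y := fun x y => polar_eq_of_preserves g hg1 x y
  -- the fixed space
  have hfixpart : ∀ y, b (g (E y)) = g (E y) := by
    intro y
    have h1 : (1 - E') (g (E y)) = 0 := by
      apply hQ.1
      intro z
      rw [hSs']
      -- `(1 - E') z` is the image of an element of `X`
      obtain ⟨x, hx⟩ := φ.surjective ⟨(1 - E') z, ⟨z, rfl⟩⟩
      have h3 : (1 - E') z = g x := by
        rw [hg2, ← Subtype.coe_mk ((1 - E') z) _]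
        exact (congrArg Subtype.val hx).symm
      rw [h3, hgpol, hEs, hXE x x.2, map_zero]
    have h4 : g (E y) = E' (g (E y)) := by
      have h5 : g (E y) - E' (g (E y)) = 0 := h1
      exact sub_eq_zero.mp h5
    rw [h4]
    have h6 := LinearMap.congr_fun hbE (g (E y))
    simp only [Module.End.mul_apply] at h6
    rw [h6, ← h4]
  intro v
  have hdec : v = (1 - E) v + E v := by
    simp
  have h1 : g (a ((1 - E) v)) = b (g ((1 - E) v)) := by
    have h3 := hg2 ⟨a ((1 - E) v), hXa _ ⟨v, rfl⟩⟩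
    have h4 := hg2 ⟨(1 - E) v, ⟨v, rfl⟩⟩
    simp only [hφ] at h3 h4
    rw [h3, h4, hℓa]
  have h3 : a (E v) = E v := LinearMap.congr_fun haE v
  conv_lhs => rw [hdec, map_add, map_add, h1, h3]
  conv_rhs => rw [hdec, map_add, map_add, hfixpart]

end Cfsg.Agent.Lib.Wall.PolarQuad
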