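import Cfsg.Agent.Lib.Wall.Polar
import Cfsg.Agent.Lib.Witt.SympModel

/-!
The polar trick: an `a`-invariant `ε`-symmetric non-degenerate form `D` on a space with an
`ε`-symmetric non-degenerate form `C` preserved by `a`, where `a ^ 2 - 1` is invertible, is the pull-back
of `C` by a linear automorphism commuting with `a`.
-/

set_option autoImplicit false
open Module Cfsg.Agent.Lib.Wall.Polar

namespace Cfsg.Agent.Lib.Wall.PolarForm

section polar
variable {F W : Type*} [Field F] [Finite F] [AddCommGroup W] [Module F W] [FiniteDimensional F W]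

theorem polar_sqrt (C D : LinearMap.BilinForm F W) (hC : C.Nondegenerate) (hD : D.Nondegenerate) {ε : F}
    (hε : ε * ε = 1) (hCε : ∀ x y, C x y = ε * C y x) (hDε : ∀ x y, D x y = ε * D y x)
    (a a' : Module.End F W) (h1 : a * a' = 1) (h2 : a' * a = 1)
    (hCa : ∀ x y, C (a x) (a y) = C x y) (hDa : ∀ x y, D (a x) (a y) = D x y)
    (hinj : ∀ x, a (a x) = x → x = 0) :
    ∃ y y' : Module.End F W, y * y' = 1 ∧ y' * y = 1 ∧ y * a = a * y ∧ ∀ x x', D x x' = C (y x) (y x') := by
  classical
  haveI : Finite W := Module.finite_of_finite F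
  haveI : Finite (Module.End F W) := Finite.of_injective (fun f : Module.End F W => (f : W → W))
    (fun f g h => LinearMap.ext (fun x => congrFun h x))
  have h1' : ∀ x, a (a' x) = x := fun x => LinearMap.congr_fun h1 x
  have h2' : ∀ x, a' (a x) = x := fun x => LinearMap.congr_fun h2 x
  let θ : Module.End F W → Module.End F W := fun φ => C.leftAdjointOfNondegenerate hC φ
  have hθ : ∀ (φ : Module.End F W) x z, C (θ φ x) z = C x (φ z) := fun φ x z =>
    LinearMap.BilinForm.isAdjointPairLeftAdjointOfNondegenerate C hC φ x z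
  have huniq : ∀ ψ φ : Module.End F W, (∀ x z, C (ψ x) z = C x (φ z)) → θ φ = ψ := by
    intro ψ φ h
    apply LinearMap.ext
    intro x
    have h3 : θ φ x - ψ x = 0 := by
      apply hC.1
      intro z
      rw [map_sub, LinearMap.sub_apply, hθ, h, sub_self]
    exact sub_eq_zero.mp h3
  have hanti : Anti θ := by
    refine ⟨?_, ?_, ?_⟩
    · intro φ ψ
      apply huniq
      intro x z
      simp only [LinearMap.add_apply, map_add, hθ]
    · intro φ ψ
      apply huniq
      intro x z
      simp only [Module.End.mul_apply, hθ]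
    · apply huniq
      intro x z
      simp
  have hinvol : ∀ φ, θ (θ φ) = φ := by
    intro φ
    apply huniq
    intro x z
    rw [hCε x (θ φ z), hθ, hCε z (φ x), ← mul_assoc, hε, one_mul]
  have hCa' : ∀ x y, C (a' x) (a' y) = C x y := by
    intro x y
    have := hCa (a' x) (a' y)
    rw [h1', h1'] at this
    exact this.symm
  have hθa : θ a = a' := by
    apply huniq
    intro x z
    rw [← hCa (a' x) z, h1']
  have hθa' : θ a' = a := by
    rw [← hθa, hinvol]
  let H : Module.End F W := D.symmCompOfNondegenerate C hC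
  have hH : ∀ x z, C (H x) z = D x z := fun x z => D.symmCompOfNondegenerate_left_apply hC z x
  have hθH : θ H = H := by
    apply huniq
    intro x z
    rw [hH, hCε x (H z), hH, hDε z x, ← mul_assoc, hε, one_mul]
  have hHa : H * a = a * H := by
    apply LinearMap.ext
    intro x
    have h3 : H (a x) - a (H x) = 0 := by
      apply hC.1
      intro z
      rw [map_sub, LinearMap.sub_apply, hH]
      have h4 : C (a (H x)) z = C (H x) (a' z) := by
        rw [← hCa (H x) (a' z), h1']
      have h5 : D (a x) z = D x (a' z) := by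
        rw [← hDa x (a' z), h1']
      rw [h4, hH, h5, sub_self]
    exact sub_eq_zero.mp h3
  have hHinj : Function.Injective H := by
    rw [injective_iff_map_eq_zero]
    intro x hx
    apply hD.1
    intro z
    rw [← hH, hx]
    simp
  have hHu : IsUnit H := by
    rw [Module.End.isUnit_iff]
    exact ⟨hHinj, LinearMap.injective_iff_surjective.mp hHinj⟩
  let S : Set (Module.End F W) := {a, a', H}
  have ha1 : a * a' = a' * a := by rw [h1, h2]
  have hHa' : H * a' = a' * H := by
    calc H * a' = a' * a * (H * a') := by rw [h2, one_mul]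
      _ = a' * (a * H) * a' := by noncomm_ring
      _ = a' * (H * a) * a' := by rw [hHa]
      _ = a' * H * (a * a') := by noncomm_ring
      _ = a' * H := by rw [h1, mul_one]
  have hcomm : ∀ x ∈ S, ∀ y ∈ S, x * y = y * x := by
    intro x hx y hy
    simp only [S, Set.mem_insert_iff, Set.mem_singleton_iff] at hx hy
    rcases hx with rfl | rfl | rfl <;> rcases hy with rfl | rfl | rfl
    · rfl
    · exact ha1
    · exact hHa.symm
    · exact ha1.symm
    · rfl
    · exact hHa'.symm
    · exact hHa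
    · exact hHa'
    · rfl
  have haS : a ∈ Subring.closure S := Subring.subset_closure (by simp [S])
  have ha'S : a' ∈ Subring.closure S := Subring.subset_closure (by simp [S])
  have hHS : H ∈ Subring.closure S := Subring.subset_closure (by simp [S])
  have hst : ∀ x ∈ S, θ x ∈ Subring.closure S := by
    intro x hx
    simp only [S, Set.mem_insert_iff, Set.mem_singleton_iff] at hx
    rcases hx with rfl | rfl | rfl
    · rw [hθa]; exact ha'S
    · rw [hθa']; exact haS
    · rw [hθH]; exact hHS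
  have hinv' : ∀ x ∈ S, θ (θ x) = x := fun x _ => hinvol x
  -- the unit `a - a'`
  have hdu : IsUnit (a - a') := by
    rw [Module.End.isUnit_iff]
    have hi : Function.Injective (a - a') := by
      rw [injective_iff_map_eq_zero]
      intro x hx
      apply hinj
      have h3 : a x = a' x := by
        simpa [sub_eq_zero] using hx
      rw [h3, h1']
    exact ⟨hi, LinearMap.injective_iff_surjective.mp hi⟩
  have hdS : a - a' ∈ Subring.closure S := sub_mem haS ha'S
  obtain ⟨d, hdmem, hd1, hd2⟩ := inv_mem_subring (Subring.closure S) hdS hdu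
  have hθd : θ (a - a') = a' - a := by
    rw [hanti.sub, hθa, hθa']
  have hθdd : θ d = - d := by
    have h3 : θ d * (a' - a) = 1 := by
      rw [← hθd, ← hanti.mul, hd2, hanti.one]
    calc θ d = θ d * ((a' - a) * (- d)) := by
          have h4 : (a' - a) * (- d) = 1 := by
            rw [mul_neg, ← neg_mul, neg_sub]
            exact hd2
          rw [h4, mul_one]
      _ = (θ d * (a' - a)) * (- d) := by noncomm_ring
      _ = - d := by rw [h3, one_mul]
  have hcomm' : ∀ z ∈ Subring.closure S, ∀ z' ∈ Subring.closure S, z * z' = z' * z := by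
    intro z hz z' hz'
    letI := closureRing hcomm
    exact congrArg Subtype.val (mul_comm (⟨z, hz⟩ : Subring.closure S) ⟨z', hz'⟩)
  have hctr : a * d + θ (a * d) = 1 := by
    rw [hanti.mul, hθa, hθdd, neg_mul, ← sub_eq_add_neg, hcomm' d hdmem a' ha'S, ← sub_mul]
    exact hd2
  obtain ⟨y, hyS, hy⟩ := exists_norm hanti hcomm hst hinv' (c := a * d) (w := a) (mul_mem haS hdmem) hctr haS
    (by rw [hθa]; exact hdu) hHS hθH hHu
  have hyinj : Function.Injective y := by
    rw [injective_iff_map_eq_zero]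
    intro x hx
    apply injective_iff_map_eq_zero _ |>.mp hHinj
    rw [← hy, Module.End.mul_apply, hx, map_zero]
  have hyu : IsUnit y := by
    rw [Module.End.isUnit_iff]
    exact ⟨hyinj, LinearMap.injective_iff_surjective.mp hyinj⟩
  obtain ⟨yu, rfl⟩ := hyu
  refine ⟨yu, (yu⁻¹ : (Module.End F W)ˣ), Units.mul_inv yu, Units.inv_mul yu, hcomm' _ hyS a haS, ?_⟩
  intro x x'
  rw [← hH, ← hy, Module.End.mul_apply, hθ]

end polar

section partialIso
variable {F V : Type*} [Field F] [AddCommGroup V] [Module F V]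

/-- Self-adjoint with respect to `C`. -/
def SA (C : LinearMap.BilinForm F V) (T : Module.End F V) : Prop := ∀ x y, C (T x) y = C x (T y)

/-- Partial isometries intertwining `a` and `b`, from the range of `T` to the range of `S`. -/
structure PI (C : LinearMap.BilinForm F V) (a b T S ℓ : Module.End F V) : Prop where
  left : ℓ * T = ℓ
  right : S * ℓ = ℓ
  iso : ∀ x y, C (ℓ x) (ℓ y) = C (T x) (T y)
  comm : ℓ * a = b * ℓ

variable {C : LinearMap.BilinForm F V} {a b : Module.End F V}

theorem PI.add {T₁ T₂ S₁ S₂ ℓ₁ ℓ₂ : Module.End F V} (h₁ : PI C a b T₁ S₁ ℓ₁) (h₂ : PI C a b T₂ S₂ ℓ₂)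
    (hTs₁ : SA C T₁) (hSs₁ : SA C S₁) (hT : T₁ * T₂ = 0) (hS : S₁ * S₂ = 0) (hT' : T₂ * T₁ = 0) (hS' : S₂ * S₁ = 0)
    (hTs₂ : SA C T₂) (hSs₂ : SA C S₂) :
    PI C a b (T₁ + T₂) (S₁ + S₂) (ℓ₁ + ℓ₂) := by
  have hcross : ∀ x y, C (ℓ₁ x) (ℓ₂ y) = 0 := by
    intro x y
    have h1 : ℓ₁ x = S₁ (ℓ₁ x) := (LinearMap.congr_fun h₁.right x).symm
    have h3 : ℓ₂ y = S₂ (ℓ₂ y) := (LinearMap.congr_fun h₂.right y).symm
    rw [h1, h3, hSs₁]
    have h4 := LinearMap.congr_fun hS (ℓ₂ y)
    simp only [Module.End.mul_apply, LinearMap.zero_apply] at h4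
    rw [h4, map_zero]
  have hcross' : ∀ x y, C (ℓ₂ x) (ℓ₁ y) = 0 := by
    intro x y
    have h1 : ℓ₂ x = S₂ (ℓ₂ x) := (LinearMap.congr_fun h₂.right x).symm
    have h3 : ℓ₁ y = S₁ (ℓ₁ y) := (LinearMap.congr_fun h₁.right y).symm
    rw [h1, h3, hSs₂]
    have h4 := LinearMap.congr_fun hS' (ℓ₁ y)
    simp only [Module.End.mul_apply, LinearMap.zero_apply] at h4
    rw [h4, map_zero]
  have hTcross : ∀ x y, C (T₁ x) (T₂ y) = 0 := by
    intro x y
    rw [hTs₁]
    have h4 := LinearMap.congr_fun hT y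
    simp only [Module.End.mul_apply, LinearMap.zero_apply] at h4
    rw [h4, map_zero]
  have hTcross' : ∀ x y, C (T₂ x) (T₁ y) = 0 := by
    intro x y
    rw [hTs₂]
    have h4 := LinearMap.congr_fun hT' y
    simp only [Module.End.mul_apply, LinearMap.zero_apply] at h4
    rw [h4, map_zero]
  refine ⟨?_, ?_, ?_, ?_⟩
  · have h1 : ℓ₁ * T₂ = 0 := by
      rw [← h₁.left, mul_assoc, hT, mul_zero]
    have h3 : ℓ₂ * T₁ = 0 := by
      rw [← h₂.left, mul_assoc, hT', mul_zero]
    rw [mul_add, add_mul, add_mul, h₁.left, h₂.left, h1, h3, add_zero, zero_add]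
  · have h1 : S₁ * ℓ₂ = 0 := by
      rw [← h₂.right, ← mul_assoc, hS, zero_mul]
    have h3 : S₂ * ℓ₁ = 0 := by
      rw [← h₁.right, ← mul_assoc, hS', zero_mul]
    rw [add_mul, mul_add, mul_add, h₁.right, h₂.right, h1, h3, add_zero, zero_add]
  · intro x y
    simp only [LinearMap.add_apply, map_add, hcross, hcross', h₁.iso, h₂.iso, hTcross, hTcross', add_zero, zero_add]
  · rw [add_mul, mul_add, h₁.comm, h₂.comm]

/-- Restriction of a non-degenerate form to the range of a self-adjoint idempotent. -/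
theorem nondeg_range (hC : C.Nondegenerate) (hrefl : C.IsRefl) {T : Module.End F V} (hT : T * T = T) (hTs : SA C T)
    [FiniteDimensional F V] :
    (C.comp (LinearMap.range T).subtype (LinearMap.range T).subtype).Nondegenerate := by
  have hr : (C.comp (LinearMap.range T).subtype (LinearMap.range T).subtype).IsRefl := fun x y h => hrefl _ _ h
  refine (LinearMap.IsRefl.nondegenerate_iff_separatingLeft hr).2 ?_
  rintro ⟨x, z, rfl⟩ hx
  apply Subtype.ext
  apply hC.1
  intro w
  have h1 := hx ⟨T w, w, rfl⟩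
  simp only [LinearMap.BilinForm.comp_apply, Submodule.subtype_apply] at h1
  rw [← hTs] at h1
  have h3 : T (T z) = T z := LinearMap.congr_fun hT z
  rw [h3] at h1
  exact h1

variable [Finite F] [FiniteDimensional F V]

/-- The polar piece. -/
theorem piece_polar (hC : C.Nondegenerate) {ε : F} (hε : ε * ε = 1) (hCε : ∀ x y, C x y = ε * C y x)
    {a' b' G G' T S : Module.End F V} (ha1 : a * a' = 1) (ha2 : a' * a = 1) (hb1 : b * b' = 1) (hb2 : b' * b = 1)
    (hG1 : G * G' = 1) (hG2 : G' * G = 1) (hCa : ∀ x y, C (a x) (a y) = C x y) (hCb : ∀ x y, C (b x) (b y) = C x y)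
    (hGa : G * a = b * G) (hT : T * T = T) (hTs : SA C T) (hTa : T * a = a * T) (hS : S * S = S) (hSs : SA C S)
    (hSb : S * b = b * S) (hGT : G * T = S * G)
    (hinj : ∀ x, T x = x → a (a x) = x → x = 0) : ∃ ℓ, PI C a b T S ℓ := by
  classical
  have hrefl : C.IsRefl := fun x y h => by rw [hCε, h, mul_zero]
  have hTx : ∀ x ∈ LinearMap.range T, T x = x := by
    rintro _ ⟨z, rfl⟩
    exact LinearMap.congr_fun hT z
  have hSx : ∀ x ∈ LinearMap.range S, S x = x := by
    rintro _ ⟨z, rfl⟩
    exact LinearMap.congr_fun hS z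
  have hTa' : T * a' = a' * T := by
    calc T * a' = a' * a * (T * a') := by rw [ha2, one_mul]
      _ = a' * (a * T) * a' := by noncomm_ring
      _ = a' * (T * a) * a' := by rw [hTa]
      _ = a' * T * (a * a') := by noncomm_ring
      _ = a' * T := by rw [ha1, mul_one]
  have hGTx : ∀ x, G (T x) = S (G x) := fun x => LinearMap.congr_fun hGT x
  have hG1x : ∀ x, G (G' x) = x := fun x => LinearMap.congr_fun hG1 x
  have hG2x : ∀ x, G' (G x) = x := fun x => LinearMap.congr_fun hG2 x
  have hGS : G' * S = T * G' := by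
    calc G' * S = G' * S * (G * G') := by rw [hG1, mul_one]
      _ = G' * (S * G) * G' := by noncomm_ring
      _ = G' * (G * T) * G' := by rw [hGT]
      _ = (G' * G) * T * G' := by noncomm_ring
      _ = T * G' := by rw [hG2, one_mul]
  have hGmem : ∀ x ∈ LinearMap.range T, G x ∈ LinearMap.range S := by
    intro x hx
    refine ⟨G x, ?_⟩
    rw [← hGTx, hTx x hx]
  let W := LinearMap.range T
  let aW : Module.End F W := a.restrict (fun x hx => by
    obtain ⟨z, rfl⟩ := hx
    exact ⟨a z, LinearMap.congr_fun hTa z⟩)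
  let aW' : Module.End F W := a'.restrict (fun x hx => by
    obtain ⟨z, rfl⟩ := hx
    exact ⟨a' z, LinearMap.congr_fun hTa' z⟩)
  have haW : ∀ x : W, ((aW x : W) : V) = a x := fun x => rfl
  have haW' : ∀ x : W, ((aW' x : W) : V) = a' x := fun x => rfl
  let CW := C.comp W.subtype W.subtype
  let D := C.comp (G ∘ₗ W.subtype) (G ∘ₗ W.subtype)
  have hCW : ∀ x y : W, CW x y = C x y := fun _ _ => rfl
  have hD : ∀ x y : W, D x y = C (G x) (G y) := fun _ _ => rfl
  have hCWn : CW.Nondegenerate := nondeg_range hC hrefl hT hTs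
  have hDn : D.Nondegenerate := by
    have hr : D.IsRefl := fun x y h => hrefl _ _ h
    refine (LinearMap.IsRefl.nondegenerate_iff_separatingLeft hr).2 ?_
    intro x hx
    have h1 : (⟨G x, hGmem x x.2⟩ : LinearMap.range S) = 0 := by
      apply (nondeg_range hC hrefl hS hSs).1
      intro z
      have h3 : G' z ∈ W := by
        obtain ⟨z, t, rfl⟩ := z
        refine ⟨G' t, ?_⟩
        exact (LinearMap.congr_fun hGS t).symm
      have h4 := hx ⟨G' z, h3⟩
      rw [hD] at h4
      simp only [hG1x] at h4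
      exact h4
    have h3 : G x = 0 := congrArg Subtype.val h1
    apply Subtype.ext
    have := hG2x x
    rw [h3, map_zero] at this
    exact this.symm
  obtain ⟨y, y', hy1, hy2, hya, hyD⟩ := polar_sqrt CW D hCWn hDn hε (fun x y => hCε _ _) (fun x y => hCε _ _) aW aW'
    (by
      apply LinearMap.ext
      intro x
      apply Subtype.ext
      exact LinearMap.congr_fun ha1 (x : V))
    (by
      apply LinearMap.ext
      intro x
      apply Subtype.ext
      exact LinearMap.congr_fun ha2 (x : V))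
    (fun x y => hCa _ _)
    (fun x y => by
      rw [hD, hD, haW, haW]
      have h1 : ∀ z, G (a z) = b (G z) := fun z => LinearMap.congr_fun hGa z
      rw [h1, h1, hCb])
    (fun x hx => by
      apply Subtype.ext
      exact hinj x (hTx x x.2) (congrArg Subtype.val hx))
  let TW : V →ₗ[F] W := T.rangeRestrict
  have hTW : ∀ x, ((TW x : W) : V) = T x := fun x => rfl
  have hy'a : y' * aW = aW * y' := by
    calc y' * aW = y' * aW * (y * y') := by rw [hy1, mul_one]
      _ = y' * (aW * y) * y' := by noncomm_ring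
      _ = y' * (y * aW) * y' := by rw [hya]
      _ = (y' * y) * aW * y' := by noncomm_ring
      _ = aW * y' := by rw [hy2, one_mul]
  have hyy' : ∀ x, y (y' x) = x := fun x => LinearMap.congr_fun hy1 x
  let ℓ : Module.End F V := G ∘ₗ W.subtype ∘ₗ y' ∘ₗ TW
  have hℓ : ∀ x, ℓ x = G ((y' (TW x) : W) : V) := fun x => rfl
  refine ⟨ℓ, ?_, ?_, ?_, ?_⟩
  · apply LinearMap.ext
    intro x
    rw [Module.End.mul_apply, hℓ, hℓ]
    congr 3
    apply Subtype.ext
    exact LinearMap.congr_fun hT x
  · apply LinearMap.ext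
    intro x
    rw [Module.End.mul_apply, hℓ, ← hGTx]
    congr 1
    exact hTx _ (y' (TW x)).2
  · intro x z
    rw [hℓ, hℓ, ← hD, hyD, hyy', hyy']
    rfl
  · apply LinearMap.ext
    intro x
    rw [Module.End.mul_apply, Module.End.mul_apply, hℓ, hℓ]
    have h1 : TW (a x) = aW (TW x) := by
      apply Subtype.ext
      exact LinearMap.congr_fun hTa x
    have h3 : y' (aW (TW x)) = aW (y' (TW x)) := LinearMap.congr_fun hy'a (TW x)
    rw [h1, h3, haW]
    exact LinearMap.congr_fun hGa _

/-- Two non-degenerate alternating forms of the same dimension are isometric. -/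
theorem exists_isom_alt {W W' : Type*} [AddCommGroup W] [Module F W] [FiniteDimensional F W]
    [AddCommGroup W'] [Module F W'] [FiniteDimensional F W'] (C₁ : LinearMap.BilinForm F W)
    (C₂ : LinearMap.BilinForm F W') (h₁ : C₁.IsAlt) (h₂ : C₂.IsAlt) (hn₁ : C₁.Nondegenerate)
    (hn₂ : C₂.Nondegenerate) (hf : finrank F W = finrank F W') :
    ∃ j : W ≃ₗ[F] W', ∀ x y, C₂ (j x) (j y) = C₁ x y := by
  obtain ⟨m', k', b, -, -, -, h4⟩ := Cfsg.Agent.S0752.result C₁ h₁
  have hk' : k' = 0 := by
    by_contra hne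
    have hpos : 0 < k' := Nat.pos_of_ne_zero hne
    let j : Fin k' := ⟨0, hpos⟩
    have h5 : b (Sum.inr j) = 0 := hn₁.1 _ (h4 j)
    exact b.ne_zero _ h5
  subst hk'
  have hr : finrank F W = 2 * m' := by
    have := Module.finrank_eq_card_basis b
    simp only [Fintype.card_sum, Fintype.card_fin] at this
    omega
  obtain ⟨ψ₁, hψ₁⟩ := Cfsg.Agent.Lib.Witt.SympModel.exists_model C₁ h₁ hn₁ m' hr
  obtain ⟨ψ₂, hψ₂⟩ := Cfsg.Agent.Lib.Witt.SympModel.exists_model C₂ h₂ hn₂ m' (hf ▸ hr)
  refine ⟨ψ₁.symm.trans ψ₂, fun x y => ?_⟩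
  simp only [LinearEquiv.trans_apply]
  rw [hψ₂, ← hψ₁, LinearEquiv.apply_symm_apply, LinearEquiv.apply_symm_apply]

/-- The scalar piece, for alternating forms. -/
theorem piece_scalar (hC : C.Nondegenerate) (hA : C.IsAlt) (μ : F) {G G' T S : Module.End F V}
    (hG1 : G * G' = 1) (hG2 : G' * G = 1) (hT : T * T = T) (hTs : SA C T) (hTa : T * a = μ • T)
    (hS : S * S = S) (hSs : SA C S) (hSb : b * S = μ • S) (hGT : G * T = S * G) : ∃ ℓ, PI C a b T S ℓ := by
  classical
  have hrefl : C.IsRefl := hA.isRefl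
  have hTx : ∀ x ∈ LinearMap.range T, T x = x := by
    rintro _ ⟨z, rfl⟩
    exact LinearMap.congr_fun hT z
  have hSx : ∀ x ∈ LinearMap.range S, S x = x := by
    rintro _ ⟨z, rfl⟩
    exact LinearMap.congr_fun hS z
  let e : V ≃ₗ[F] V := LinearEquiv.ofLinearMap G G' hG1 hG2
  have hGTx : ∀ x, G (T x) = S (G x) := fun x => LinearMap.congr_fun hGT x
  have hmap : LinearMap.range S = (LinearMap.range T).map (e : V →ₗ[F] V) := by
    ext y
    constructor
    · rintro ⟨z, rfl⟩
      refine ⟨T (G' z), ⟨_, rfl⟩, ?_⟩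
      show G (T (G' z)) = S z
      rw [hGTx]
      congr 1
      exact LinearMap.congr_fun hG1 z
    · rintro ⟨_, ⟨z, rfl⟩, rfl⟩
      exact ⟨G z, (hGTx z).symm⟩
  have hf : finrank F (LinearMap.range T) = finrank F (LinearMap.range S) := by
    rw [hmap]
    exact (LinearEquiv.finrank_map_eq e _).symm
  obtain ⟨j, hj⟩ := exists_isom_alt (C.comp (LinearMap.range T).subtype (LinearMap.range T).subtype) (C.comp (LinearMap.range S).subtype (LinearMap.range S).subtype) (fun x => hA _) (fun x => hA _) (nondeg_range hC hrefl hT hTs)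
    (nondeg_range hC hrefl hS hSs) hf
  let TW : V →ₗ[F] LinearMap.range T := T.rangeRestrict
  have hTW : ∀ x, ((TW x : LinearMap.range T) : V) = T x := fun x => rfl
  let ℓ : Module.End F V := (LinearMap.range S).subtype ∘ₗ (j : LinearMap.range T →ₗ[F] LinearMap.range S) ∘ₗ TW
  have hℓ : ∀ x, ℓ x = ((j (TW x) : LinearMap.range S) : V) := fun x => rfl
  refine ⟨ℓ, ?_, ?_, ?_, ?_⟩
  · apply LinearMap.ext
    intro x
    rw [Module.End.mul_apply, hℓ, hℓ]
    congr 2
    apply Subtype.ext
    exact LinearMap.congr_fun hT x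
  · apply LinearMap.ext
    intro x
    rw [Module.End.mul_apply, hℓ]
    exact hSx _ (j (TW x)).2
  · intro x y
    rw [hℓ, hℓ]
    exact hj _ _
  · apply LinearMap.ext
    intro x
    rw [Module.End.mul_apply, Module.End.mul_apply, hℓ, hℓ]
    have h1 : TW (a x) = μ • TW x := by
      apply Subtype.ext
      exact LinearMap.congr_fun hTa x
    rw [h1, map_smul]
    have h3 := LinearMap.congr_fun hSb ((j (TW x) : LinearMap.range S) : V)
    simp only [Module.End.mul_apply, LinearMap.smul_apply] at h3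
    rw [hSx _ (j (TW x)).2] at h3
    exact h3.symm

end partialIso

section avg
variable {F V : Type*} [Field F] [AddCommGroup V] [Module F V]

/-- The averaging operator. -/
noncomputable def avg (Y : Module.End F V) (n : ℕ) : Module.End F V :=
  (n : F)⁻¹ • ∑ i ∈ Finset.range n, Y ^ i

variable {Y : Module.End F V} {n : ℕ}

theorem sum_mul_self (hY : Y ^ n = 1) : (∑ i ∈ Finset.range n, Y ^ i) * Y = ∑ i ∈ Finset.range n, Y ^ i := by
  have h1 := Finset.sum_range_succ (fun i => Y ^ i) n
  have h3 := Finset.sum_range_succ' (fun i => Y ^ i) n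
  rw [Finset.sum_mul]
  simp only [← pow_succ]
  simp only [pow_zero, hY] at h1 h3
  have h4 : ∑ i ∈ Finset.range n, Y ^ (i + 1) + 1 = ∑ i ∈ Finset.range n, Y ^ i + 1 := by
    rw [← h3, h1]
  exact add_right_cancel h4

theorem avg_mul_self (hY : Y ^ n = 1) : avg Y n * Y = avg Y n := by
  unfold avg
  rw [smul_mul_assoc, sum_mul_self hY]

theorem comm_avg {Z : Module.End F V} (h : Commute Y Z) : Commute (avg Y n) Z := by
  unfold avg
  apply Commute.smul_left
  apply Commute.sum_left
  intro i _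
  exact h.pow_left i

theorem self_mul_avg (hY : Y ^ n = 1) : Y * avg Y n = avg Y n := by
  rw [(comm_avg (Commute.refl Y)).symm.eq, avg_mul_self hY]

theorem avg_mul_pow (hY : Y ^ n = 1) (k : ℕ) : avg Y n * Y ^ k = avg Y n := by
  induction k with
  | zero => simp
  | succ k ih => rw [pow_succ, ← mul_assoc, ih, avg_mul_self hY]

theorem avg_idem (hY : Y ^ n = 1) (hn : (n : F) ≠ 0) : avg Y n * avg Y n = avg Y n := by
  have h1 : avg Y n * (∑ i ∈ Finset.range n, Y ^ i) = (n : F) • avg Y n := by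
    rw [Finset.mul_sum]
    simp only [avg_mul_pow hY, Finset.sum_const, Finset.card_range]
    rw [← Nat.cast_smul_eq_nsmul F]
  calc avg Y n * avg Y n = (n : F)⁻¹ • (avg Y n * ∑ i ∈ Finset.range n, Y ^ i) := by
        conv_lhs => arg 2; rw [avg]
        rw [mul_smul_comm]
    _ = avg Y n := by rw [h1, smul_smul, inv_mul_cancel₀ hn, one_smul]

theorem avg_fix (hn : (n : F) ≠ 0) {x : V} (hx : Y x = x) : avg Y n x = x := by
  have h1 : ∀ k, (Y ^ k) x = x := by
    intro k
    induction k with
    | zero => simp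
    | succ k ih => rw [pow_succ, Module.End.mul_apply, hx, ih]
  unfold avg
  simp only [LinearMap.smul_apply, LinearMap.sum_apply, h1, Finset.sum_const, Finset.card_range]
  rw [← Nat.cast_smul_eq_nsmul F, smul_smul, inv_mul_cancel₀ hn, one_smul]

theorem avg_semiconj {G Z : Module.End F V} (h : G * Y = Z * G) : G * avg Y n = avg Z n * G := by
  unfold avg
  rw [mul_smul_comm, smul_mul_assoc, Finset.mul_sum, Finset.sum_mul]
  congr 1
  refine Finset.sum_congr rfl fun i _ => ?_
  have h1 : SemiconjBy G Y Z := h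
  exact (h1.pow_right i).eq

theorem avg_SA {C : LinearMap.BilinForm F V} (hY : Y ^ n = 1) (hCY : ∀ x y, C (Y x) (Y y) = C x y) :
    SA C (avg Y n) := by
  intro x y
  have hpow : ∀ (k : ℕ) x y, C ((Y ^ k) x) ((Y ^ k) y) = C x y := by
    intro k
    induction k with
    | zero => simp
    | succ k ih =>
      intro x y
      rw [pow_succ, Module.End.mul_apply, Module.End.mul_apply, ih, hCY]
  unfold avg
  simp only [LinearMap.smul_apply, LinearMap.sum_apply, map_smul, map_sum, smul_eq_mul]
  congr 1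
  have h1 : ∀ i ∈ Finset.range n, C ((Y ^ i) x) y = C x ((Y ^ (n - 1 - i + 1)) y) := by
    intro i hi
    have hi' := Finset.mem_range.mp hi
    have h3 : y = (Y ^ i) ((Y ^ (n - 1 - i + 1)) y) := by
      rw [← Module.End.mul_apply, ← pow_add]
      have : i + (n - 1 - i + 1) = n := by omega
      rw [this, hY]
      rfl
    conv_lhs => rw [h3]
    rw [hpow]
  rw [Finset.sum_congr rfl h1, Finset.sum_range_reflect (fun j => C x ((Y ^ (j + 1)) y)) n]
  have h4 := congrArg (fun f : Module.End F V => C x (f y)) (sum_mul_self hY)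
  simp only [Finset.sum_mul, ← pow_succ, LinearMap.sum_apply, map_sum] at h4
  exact h4

end avg

section eps
variable {F V : Type*} [Field F] [AddCommGroup V] [Module F V] {C : LinearMap.BilinForm F V}

/-- The relations among `E` and `E * a`. -/
theorem eps_rel {a E : Module.End F V} (hE : E * E = E) (hEa : E * a = a * E) (hEY : E * (a * a) = E) :
    E * (E * a) = E * a ∧ (E * a) * E = E * a ∧ (E * a) * (E * a) = E ∧ (E * a) * a = E := by
  refine ⟨by rw [← mul_assoc, hE], ?_, ?_, by rw [mul_assoc, hEY]⟩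
  · rw [mul_assoc, ← hEa, ← mul_assoc, hE]
  · calc (E * a) * (E * a) = E * (a * E) * a := by noncomm_ring
      _ = E * (E * a) * a := by rw [hEa]
      _ = (E * E) * (a * a) := by noncomm_ring
      _ = E := by rw [hE, hEY]

theorem eps_mul (μ ν : F) {a E : Module.End F V} (hE : E * E = E) (hEa : E * a = a * E) (hEY : E * (a * a) = E) :
    ((2 : F)⁻¹ • (E + μ • (E * a))) * ((2 : F)⁻¹ • (E + ν • (E * a))) =
      ((2 : F)⁻¹ * (2 : F)⁻¹ * (1 + μ * ν)) • E + ((2 : F)⁻¹ * (2 : F)⁻¹ * (μ + ν)) • (E * a) := by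
  obtain ⟨h1, h3, h4, -⟩ := eps_rel hE hEa hEY
  simp only [smul_mul_assoc, mul_smul_comm, add_mul, mul_add, hE, h1, h3, h4, smul_add, smul_smul]
  module

theorem eps_props (h2 : (2 : F) ≠ 0) {μ : F} (hμ : μ * μ = 1) {a a' E : Module.End F V} (ha1 : a * a' = 1) (ha2 : a' * a = 1)
    (hCa : ∀ x y, C (a x) (a y) = C x y) (hE : E * E = E) (hEs : SA C E) (hEa : E * a = a * E) (hEY : E * (a * a) = E) :
    let T := (2 : F)⁻¹ • (E + μ • (E * a))
    T * T = T ∧ SA C T ∧ T * a = μ • T ∧ a * T = μ • T := by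
  intro T
  obtain ⟨h1, h3, h4, h5⟩ := eps_rel hE hEa hEY
  have hc : (2 : F)⁻¹ * 2 = 1 := inv_mul_cancel₀ h2
  have hTa : T * a = μ • T := by
    simp only [T, smul_mul_assoc, add_mul, h5, smul_add, smul_smul]
    have e1 : μ * ((2 : F)⁻¹ * μ) = (2 : F)⁻¹ := by
      calc μ * ((2 : F)⁻¹ * μ) = (2 : F)⁻¹ * (μ * μ) := by ring
        _ = _ := by rw [hμ, mul_one]
    rw [e1, mul_comm ((2 : F)⁻¹) μ]
    abel
  refine ⟨?_, ?_, hTa, ?_⟩
  · simp only [T]
    rw [eps_mul μ μ hE hEa hEY, hμ]
    have e1 : (2 : F)⁻¹ * (2 : F)⁻¹ * (1 + 1) = (2 : F)⁻¹ := by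
      rw [one_add_one_eq_two, mul_assoc, hc, mul_one]
    have e2 : (2 : F)⁻¹ * (2 : F)⁻¹ * (μ + μ) = (2 : F)⁻¹ * μ := by
      rw [← two_mul]
      calc (2 : F)⁻¹ * (2 : F)⁻¹ * (2 * μ) = (2 : F)⁻¹ * ((2 : F)⁻¹ * 2) * μ := by ring
        _ = _ := by rw [hc, mul_one]
    rw [e1, e2, smul_add, smul_smul]
  · have hXs : SA C (E * a) := by
      intro x y
      have h6 : a' * E = a * E := by
        calc a' * E = a' * (E * (a * a)) := by rw [hEY]
          _ = a' * (a * E * a) := by rw [← hEa]; noncomm_ring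
          _ = (a' * a) * (E * a) := by noncomm_ring
          _ = a * E := by rw [ha2, one_mul, hEa]
      rw [Module.End.mul_apply, Module.End.mul_apply, hEs]
      have h7 : E y = a (a' (E y)) := by
        have := LinearMap.congr_fun ha1 (E y)
        exact this.symm
      conv_lhs => rw [h7]
      rw [hCa]
      have h8 := LinearMap.congr_fun h6 y
      simp only [Module.End.mul_apply] at h8
      rw [h8]
      have h9 := LinearMap.congr_fun hEa y
      simp only [Module.End.mul_apply] at h9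
      rw [h9]
    intro x y
    simp only [T, LinearMap.smul_apply, LinearMap.add_apply, map_smul, map_add, smul_eq_mul, hEs x y, hXs x y]
  · have hcomm : T * a = a * T := by
      simp only [T, smul_mul_assoc, mul_smul_comm, add_mul, mul_add, hEa]
      rw [mul_assoc a E a, hEa]
    rw [← hcomm, hTa]

theorem eps_orth (h2 : (2 : F) ≠ 0) {a E : Module.End F V} (hE : E * E = E) (hEa : E * a = a * E) (hEY : E * (a * a) = E) :
    ((2 : F)⁻¹ • (E + (1 : F) • (E * a))) * ((2 : F)⁻¹ • (E + (-1 : F) • (E * a))) = 0 := by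
  rw [eps_mul 1 (-1) hE hEa hEY]
  simp

theorem eps_orth' (h2 : (2 : F) ≠ 0) {a E : Module.End F V} (hE : E * E = E) (hEa : E * a = a * E) (hEY : E * (a * a) = E) :
    ((2 : F)⁻¹ • (E + (-1 : F) • (E * a))) * ((2 : F)⁻¹ • (E + (1 : F) • (E * a))) = 0 := by
  rw [eps_mul (-1) 1 hE hEa hEY]
  simp

theorem eps_sum (h2 : (2 : F) ≠ 0) {a E : Module.End F V} :
    ((2 : F)⁻¹ • (E + (1 : F) • (E * a))) + ((2 : F)⁻¹ • (E + (-1 : F) • (E * a))) = E := by
  have hc : (2 : F)⁻¹ + (2 : F)⁻¹ = 1 := by
    rw [← two_mul, mul_inv_cancel₀ h2]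
  calc ((2 : F)⁻¹ • (E + (1 : F) • (E * a))) + ((2 : F)⁻¹ • (E + (-1 : F) • (E * a)))
      = ((2 : F)⁻¹ + (2 : F)⁻¹) • E := by module
    _ = E := by rw [hc, one_smul]

end eps

section symp
variable {F V : Type*} [Field F] [Finite F] [AddCommGroup V] [Module F V] [FiniteDimensional F V]
  {C : LinearMap.BilinForm F V}

/-- The conjugacy of two semisimple isometries of an alternating form under the isometry group,
at the level of endomorphisms. `a ^ n = 1` with `n` invertible in `F`. -/
theorem exists_pi_alt (hC : C.Nondegenerate) (hA : C.IsAlt) {a a' b b' G G' : Module.End F V} {n : ℕ}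
    (hn : (n : F) ≠ 0) (ha1 : a * a' = 1) (ha2 : a' * a = 1) (hb1 : b * b' = 1) (hb2 : b' * b = 1)
    (hG1 : G * G' = 1) (hG2 : G' * G = 1) (hCa : ∀ x y, C (a x) (a y) = C x y) (hCb : ∀ x y, C (b x) (b y) = C x y)
    (hGa : G * a = b * G) (han : a ^ n = 1) (hbn : b ^ n = 1) :
    ∃ ℓ, PI C a b 1 1 ℓ := by
  classical
  have hCε : ∀ x y, C x y = (-1 : F) * C y x := by
    intro x y
    have h := hA (x + y)
    simp only [map_add, LinearMap.add_apply, hA x, hA y, zero_add, add_zero] at h
    rw [neg_one_mul]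
    exact eq_neg_of_add_eq_zero_right h
  let Y := a * a
  let Z := b * b
  have hYn : Y ^ n = 1 := by
    show (a * a) ^ n = 1
    rw [(Commute.refl a).mul_pow, han, one_mul]
  have hZn : Z ^ n = 1 := by
    show (b * b) ^ n = 1
    rw [(Commute.refl b).mul_pow, hbn, one_mul]
  have hCY : ∀ x y, C (Y x) (Y y) = C x y := fun x y => by
    show C (a (a x)) (a (a y)) = _
    rw [hCa, hCa]
  have hCZ : ∀ x y, C (Z x) (Z y) = C x y := fun x y => by
    show C (b (b x)) (b (b y)) = _
    rw [hCb, hCb]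
  let E := avg Y n
  let E' := avg Z n
  have hE : E * E = E := avg_idem hYn hn
  have hE' : E' * E' = E' := avg_idem hZn hn
  have hEs : SA C E := avg_SA hYn hCY
  have hEs' : SA C E' := avg_SA hZn hCZ
  have hEa : E * a = a * E := comm_avg ((Commute.refl a).mul_left (Commute.refl a))
  have hEb : E' * b = b * E' := comm_avg ((Commute.refl b).mul_left (Commute.refl b))
  have hGY : G * Y = Z * G := by
    show G * (a * a) = (b * b) * G
    calc G * (a * a) = (G * a) * a := (mul_assoc _ _ _).symm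
      _ = (b * G) * a := by rw [hGa]
      _ = b * (G * a) := mul_assoc _ _ _
      _ = b * (b * G) := by rw [hGa]
      _ = (b * b) * G := (mul_assoc _ _ _).symm
  have hGE : G * E = E' * G := avg_semiconj hGY
  have hEY : E * (a * a) = E := avg_mul_self hYn
  have hEZ : E' * (b * b) = E' := avg_mul_self hZn
  -- the polar piece
  have hT' : (1 - E) * (1 - E) = 1 - E := by
    rw [mul_sub, sub_mul, sub_mul, hE]
    simp
  have hS' : (1 - E') * (1 - E') = 1 - E' := by
    rw [mul_sub, sub_mul, sub_mul, hE']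
    simp
  have hTs' : SA C (1 - E) := by
    intro x y
    simp only [LinearMap.sub_apply, Module.End.one_apply, map_sub, hEs x y]
  have hSs' : SA C (1 - E') := by
    intro x y
    simp only [LinearMap.sub_apply, Module.End.one_apply, map_sub, hEs' x y]
  obtain ⟨ℓ₁, hℓ₁⟩ := piece_polar (a := a) (b := b) (a' := a') (b' := b') (G := G) (G' := G') (T := 1 - E) (S := 1 - E') hC
    (ε := -1) (by ring) hCε ha1 ha2 hb1 hb2 hG1 hG2 hCa hCb hGa hT' hTs'
    (by rw [sub_mul, mul_sub, hEa, one_mul, mul_one]) hS' hSs'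
    (by rw [sub_mul, mul_sub, hEb, one_mul, mul_one])
    (by rw [mul_sub, sub_mul, hGE, one_mul, mul_one])
    (by
      intro x hx hx2
      have h1 : Y x = x := hx2
      have h3 : E x = x := avg_fix hn h1
      have h4 : x - E x = x := hx
      rw [h3, sub_self] at h4
      exact h4.symm)
  -- the piece of `E`
  have hpiece : ∃ ℓ, PI C a b E E' ℓ := by
    by_cases h2 : (2 : F) = 0
    · -- characteristic two: `a = 1` on the range of `E`
      obtain ⟨k, hk⟩ : ∃ k, n + 1 = k + k := by
        rcases Nat.even_or_odd n with h | h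
        · obtain ⟨t, rfl⟩ := h
          exfalso
          apply hn
          push_cast
          rw [← two_mul, h2, zero_mul] 
        · obtain ⟨t, rfl⟩ := h
          exact ⟨t + 1, by ring⟩
      have hka : a = Y ^ k := by
        show a = (a * a) ^ k
        rw [(Commute.refl a).mul_pow, ← pow_add, ← hk, pow_succ, han, one_mul]
      have hkb : b = Z ^ k := by
        show b = (b * b) ^ k
        rw [(Commute.refl b).mul_pow, ← pow_add, ← hk, pow_succ, hbn, one_mul]
      have h1 : E * a = E := by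
        conv_lhs => rw [hka]
        exact avg_mul_pow hYn k
      have h3 : E' * b = E' := by
        conv_lhs => rw [hkb]
        exact avg_mul_pow hZn k
      exact piece_scalar hC hA (1 : F) hG1 hG2 hE hEs (by rw [h1, one_smul]) hE' hEs'
        (by rw [← hEb, h3, one_smul]) hGE
    · -- odd characteristic
      have hc : (2 : F)⁻¹ * 2 = 1 := inv_mul_cancel₀ h2
      obtain ⟨hap, ha₂, ha₃, ha₄⟩ := eps_props h2 (μ := 1) (by ring) ha1 ha2 hCa hE hEs hEa hEY
      obtain ⟨hbp, hb₂, hb₃, hb₄⟩ := eps_props h2 (μ := 1) (by ring) hb1 hb2 hCb hE' hEs' hEb hEZ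
      obtain ⟨ha₅, ha₆, ha₇, ha₈⟩ := eps_props h2 (μ := -1) (by ring) ha1 ha2 hCa hE hEs hEa hEY
      obtain ⟨hb₅, hb₆, hb₇, hb₈⟩ := eps_props h2 (μ := -1) (by ring) hb1 hb2 hCb hE' hEs' hEb hEZ
      have hGT : ∀ μ : F, G * ((2 : F)⁻¹ • (E + μ • (E * a))) = ((2 : F)⁻¹ • (E' + μ • (E' * b))) * G := by
        intro μ
        rw [mul_smul_comm, smul_mul_assoc, mul_add, add_mul, mul_smul_comm, smul_mul_assoc, hGE, ← mul_assoc, hGE,
          mul_assoc E' G a, hGa, mul_assoc E' b G]
      obtain ⟨ℓp, hℓp⟩ := piece_scalar hC hA (1 : F) hG1 hG2 hap ha₂ ha₃ hbp hb₂ hb₄ (hGT 1)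
      obtain ⟨ℓm, hℓm⟩ := piece_scalar hC hA (-1 : F) hG1 hG2 ha₅ ha₆ ha₇ hb₅ hb₆ hb₈ (hGT (-1))
      have h3 := PI.add hℓp hℓm ha₂ hb₂ (eps_orth h2 hE hEa hEY) (eps_orth h2 hE' hEb hEZ)
        (eps_orth' h2 hE hEa hEY) (eps_orth' h2 hE' hEb hEZ) ha₆ hb₆
      rw [eps_sum h2, eps_sum h2] at h3
      exact ⟨_, h3⟩
  obtain ⟨ℓ₂, hℓ₂⟩ := hpiece
  have hfin := PI.add hℓ₁ hℓ₂ hTs' hSs' (by rw [sub_mul, hE, one_mul, sub_self]) (by rw [sub_mul, hE', one_mul, sub_self])
    (by rw [mul_sub, hE, mul_one, sub_self]) (by rw [mul_sub, hE', mul_one, sub_self]) hEs hEs'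
  rw [sub_add_cancel, sub_add_cancel] at hfin
  exact ⟨_, hfin⟩

end symp

end Cfsg.Agent.Lib.Wall.PolarForm
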